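import Mathlib
import Cfsg.Prelude.Def_LocalStructure
import Cfsg.Agent.Lib.Amalgam.PElement
import Cfsg.Agent.Lib.Components.IsolatedMin

/-!
Iterated closures `V_λ^{(n)}` on the coset graph: conjugation, generation from one neighbour, and the
argument that `V_λ^{(n)} = V_μ^{(n-1)}` is impossible when `V_λ^{(n)} ≤ Q_λ`.
-/

set_option autoImplicit false

namespace Cfsg.Agent.Lib.VIter

open Cfsg
open Cfsg.Agent.Lib.Amalgam.CosetGraph
open Cfsg.Agent.Lib.Amalgam.Vertex
open Cfsg.Agent.Lib.Amalgam.PElement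

variable {X : Type*} [Group X] {p : ℕ} [hp : Fact p.Prime] {M₁ M₂ : Subgroup X}

/-- A `p`-subgroup of the right order is the image of a Sylow subgroup. -/
theorem exists_sylow_of_card {H T : Subgroup X} [Finite H] (hT : T ≤ H)
    (hc : Nat.card T = p ^ (Nat.card H).factorization p) :
    ∃ P : Sylow p H, (P : Subgroup H).map H.subtype = T := by
  have hc' : Nat.card (T.subgroupOf H) = p ^ (Nat.card H).factorization p := by
    rw [← hc]
    exact Nat.card_congr (Subgroup.subgroupOfEquivOfLe hT).toEquiv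
  refine ⟨Sylow.ofCard (T.subgroupOf H) hc', ?_⟩
  rw [Sylow.coe_ofCard, Subgroup.map_subgroupOf_eq_of_le hT]

/-- Conjugation carries `Z_H` into `Z_{gHg⁻¹}`. -/
theorem conj_mem_sylowCenterClosure_map {H : Subgroup X} [Finite H] (g : X) {x : X}
    (hx : x ∈ sylowCenterClosure p H) :
    g * x * g⁻¹ ∈ sylowCenterClosure p (H.map (MulAut.conj g).toMonoidHom) := by
  have hfin : Finite (H.map (MulAut.conj g).toMonoidHom) :=
    Finite.of_equiv _ (H.equivMapOfInjective (MulAut.conj g).toMonoidHom (MulAut.conj g).injective).toEquiv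
  have hle : sylowCenterClosure p H ≤
      (sylowCenterClosure p (H.map (MulAut.conj g).toMonoidHom)).comap (MulAut.conj g).toMonoidHom := by
    rw [sylowCenterClosure_le_iff]
    intro S y hy hc hpw
    rw [Subgroup.mem_comap]
    have hcard : Nat.card (((S : Subgroup H).map H.subtype).map (MulAut.conj g).toMonoidHom) =
        p ^ (Nat.card (H.map (MulAut.conj g).toMonoidHom)).factorization p := by
      rw [card_map_conj, card_map_conj]
      rw [← S.card_eq_multiplicity]
      exact Nat.card_congr (Subgroup.equivMapOfInjective _ _ H.subtype_injective).toEquiv.symm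
    have hsub : ((S : Subgroup H).map H.subtype).map (MulAut.conj g).toMonoidHom ≤
        H.map (MulAut.conj g).toMonoidHom := by
      apply Subgroup.map_mono
      rintro _ ⟨a, -, rfl⟩
      exact a.2
    obtain ⟨S', hS'⟩ := exists_sylow_of_card hsub hcard
    refine mem_sylowCenterClosure_of S' ?_ ?_ ?_
    · rw [hS']
      exact Subgroup.mem_map_of_mem _ hy
    · rw [hS']
      rintro _ ⟨a, ha, rfl⟩
      have h1 := hc a ha
      show g * a * g⁻¹ * (g * y * g⁻¹) = g * y * g⁻¹ * (g * a * g⁻¹)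
      calc g * a * g⁻¹ * (g * y * g⁻¹) = g * (a * y) * g⁻¹ := by group
        _ = g * (y * a) * g⁻¹ := by rw [h1]
        _ = _ := by group
    · show (g * y * g⁻¹) ^ p = 1
      rw [conj_pow, hpw]; simp
  exact hle hx

/-- Conjugation carries `Z_δ` to `Z_{g δ}`. -/
theorem conj_mem_vertexZ (h : IsCharPAmalgamPair p M₁ M₂) (g : X) {δ : CosetVertex M₁ M₂} {x : X}
    (hx : x ∈ vertexZ p δ) : g * x * g⁻¹ ∈ vertexZ p (g • δ) := by
  have := finite_stab h δ
  have h1 := conj_mem_sylowCenterClosure_map (p := p) g hx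
  rw [vertexZ, MulAction.stabilizer_smul_eq_stabilizer_map_conj]
  exact h1

theorem vertexZ_le_vIter {n : ℕ} {δ μ : CosetVertex M₁ M₂}
    (hd : (cosetGraph M₁ M₂).dist δ μ ≤ n) : vertexZ p μ ≤ vertexVIter p M₁ M₂ n δ :=
  le_iSup (fun μ : {μ : CosetVertex M₁ M₂ // (cosetGraph M₁ M₂).dist δ μ ≤ n} =>
    vertexZ p (μ : CosetVertex M₁ M₂)) ⟨μ, hd⟩

theorem vIter_le_iff {n : ℕ} {δ : CosetVertex M₁ M₂} {Y : Subgroup X} :
    vertexVIter p M₁ M₂ n δ ≤ Y ↔ ∀ μ, (cosetGraph M₁ M₂).dist δ μ ≤ n → vertexZ p μ ≤ Y := by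
  unfold vertexVIter
  rw [iSup_le_iff]
  exact ⟨fun h μ hμ => h ⟨μ, hμ⟩, fun h μ => h μ μ.2⟩

/-- Conjugation carries `V_δ^{(n)}` to `V_{g δ}^{(n)}`. -/
theorem conj_mem_vIter (h : IsCharPAmalgamPair p M₁ M₂) (g : X) {n : ℕ} {δ : CosetVertex M₁ M₂}
    {x : X} (hx : x ∈ vertexVIter p M₁ M₂ n δ) :
    g * x * g⁻¹ ∈ vertexVIter p M₁ M₂ n (g • δ) := by
  have hle : vertexVIter p M₁ M₂ n δ ≤
      (vertexVIter p M₁ M₂ n (g • δ)).comap (MulAut.conj g).toMonoidHom := by
    rw [vIter_le_iff]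
    intro μ hμ z hz
    rw [Subgroup.mem_comap]
    have h1 := conj_mem_vertexZ h g hz
    have h2 : (cosetGraph M₁ M₂).dist (g • δ) (g • μ) ≤ n := by
      rw [Cfsg.Agent.Lib.Amalgam.CosetGraph.dist_smul]; exact hμ
    exact vertexZ_le_vIter h2 h1
  exact hle hx

theorem vIter_le_vIter (h : IsCharPAmalgamPair p M₁ M₂) {a b : CosetVertex M₁ M₂} {m n : ℕ}
    (hd : (cosetGraph M₁ M₂).dist a b + m ≤ n) :
    vertexVIter p M₁ M₂ m b ≤ vertexVIter p M₁ M₂ n a := by
  rw [vIter_le_iff]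
  intro μ hμ
  refine vertexZ_le_vIter ?_
  have := (connected h.1.1).dist_triangle (u := a) (v := b) (w := μ)
  omega

/-- Generation: `V_λ^{(n)}` is generated by the `G_λ`-conjugates of `V_μ^{(n-1)}`. -/
theorem vIter_le_of_conj (h : IsCharPAmalgamPair p M₁ M₂) {l μ : CosetVertex M₁ M₂}
    (hadj : (cosetGraph M₁ M₂).Adj l μ) {n : ℕ} (hn : 1 ≤ n) {Y : Subgroup X}
    (hY : ∀ g ∈ MulAction.stabilizer X l, ∀ w ∈ vertexVIter p M₁ M₂ (n - 1) μ, g * w * g⁻¹ ∈ Y) :
    vertexVIter p M₁ M₂ n l ≤ Y := by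
  have hconn := connected h.1.1
  have := finite_stab h l
  have := finite_stab h μ
  rw [vIter_le_iff]
  intro ρ hρ
  by_cases hrl : ρ = l
  · subst hrl
    rw [vertexZ, sylowCenterClosure_le_iff]
    intro S x hx hc hpw
    have hfin : Finite ↥(edgeStabilizer ρ μ) :=
      Finite.of_injective (Subgroup.inclusion (inf_le_left : edgeStabilizer ρ μ ≤ _))
        (Subgroup.inclusion_injective _)
    obtain ⟨S₀⟩ : Nonempty (Sylow p ↥(edgeStabilizer ρ μ)) := inferInstance
    obtain ⟨P₀, hP₀⟩ := exists_sylow_of_edge h hadj S₀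
    obtain ⟨P₁, hP₁⟩ := exists_sylow_of_edge_right h hadj S₀
    obtain ⟨a, rfl⟩ := MulAction.exists_smul_eq (MulAction.stabilizer X ρ) P₀ S
    rw [map_smul_sylow] at hx hc
    obtain ⟨x', hx', rfl⟩ := hx
    have hx'2 : x' ∈ (P₁ : Subgroup _).map (MulAction.stabilizer X μ).subtype := by
      rw [hP₁, ← hP₀]; exact hx'
    have hcomm : ∀ y ∈ (P₁ : Subgroup _).map (MulAction.stabilizer X μ).subtype, y * x' = x' * y := by
      intro y hy
      rw [hP₁, ← hP₀] at hy
      have h1 := hc _ (Subgroup.mem_map_of_mem (MulAut.conj (a : X)).toMonoidHom hy)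
      have h1' : (a : X) * y * (a : X)⁻¹ * ((a : X) * x' * (a : X)⁻¹) =
          (a : X) * x' * (a : X)⁻¹ * ((a : X) * y * (a : X)⁻¹) := h1
      have h2 : (a : X) * (y * x') * (a : X)⁻¹ = (a : X) * (x' * y) * (a : X)⁻¹ := by
        calc (a : X) * (y * x') * (a : X)⁻¹
            = (a : X) * y * (a : X)⁻¹ * ((a : X) * x' * (a : X)⁻¹) := by group
          _ = (a : X) * x' * (a : X)⁻¹ * ((a : X) * y * (a : X)⁻¹) := h1'
          _ = _ := by group
      simpa using h2
    have hpw' : x' ^ p = 1 := by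
      have h3 : ((a : X) * x' * (a : X)⁻¹) ^ p = 1 := hpw
      rw [conj_pow] at h3
      simpa using h3
    have hz : x' ∈ vertexZ p μ := mem_sylowCenterClosure_of P₁ hx'2 hcomm hpw'
    have hw : x' ∈ vertexVIter p M₁ M₂ (n - 1) μ :=
      vertexZ_le_vIter (by rw [SimpleGraph.dist_self]; omega) hz
    exact hY a a.2 x' hw
  · obtain ⟨ν, hν, hd⟩ := exists_adj_dist_succ hconn (Ne.symm hrl)
    obtain ⟨a, ha, rfl⟩ := neighbours_transitive hadj hν
    intro z hz
    have h1 := conj_mem_vertexZ h a⁻¹ hz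
    have h2 : (cosetGraph M₁ M₂).dist μ (a⁻¹ • ρ) ≤ n - 1 := by
      have e : (cosetGraph M₁ M₂).dist (a⁻¹ • (a • μ)) (a⁻¹ • ρ) =
          (cosetGraph M₁ M₂).dist (a • μ) ρ := Cfsg.Agent.Lib.Amalgam.CosetGraph.dist_smul a⁻¹ _ _
      rw [inv_smul_smul] at e
      omega
    have h3 := vertexZ_le_vIter h2 h1
    have h4 := hY a ha _ h3
    simpa [mul_assoc] using h4

/-- `g = e k` with `e ∈ O^p(O^{p'}(H))` and `k` in a subgroup containing a Sylow subgroup and its
normalizer in `H`. -/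
theorem factor {H K T : Subgroup X} [Finite H] (hTH : T ≤ H) (hTK : T ≤ K)
    (hcard : Nat.card T = p ^ (Nat.card H).factorization p)
    (hN : ∀ k ∈ H, k ∈ Subgroup.normalizer (T : Set X) → k ∈ K) {g : X} (hg : g ∈ H) :
    ∃ e ∈ (pResidual p ↥(pElementClosure p H)).map (pElementClosure p H).subtype,
      ∃ k ∈ K, g = e * k := by
  obtain ⟨P₀, hP₀⟩ := exists_sylow_of_card hTH hcard
  obtain ⟨a, ha, k, hkH, hkN, rfl⟩ := frattini P₀ hg
  rw [hP₀] at hkN
  have hkK := hN k hkH hkN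
  have hTL : T ≤ pElementClosure p H := by
    rw [← hP₀]; exact map_sylow_le_pElementClosure P₀
  have hLH : pElementClosure p H ≤ H := pElementClosure_le
  have hfinL : Finite ↥(pElementClosure p H) :=
    Finite.of_injective (Subgroup.inclusion hLH) (Subgroup.inclusion_injective _)
  have hfact : (Nat.card ↥(pElementClosure p H)).factorization p = (Nat.card H).factorization p := by
    apply le_antisymm
    · exact (Nat.factorization_le_iff_dvd Nat.card_pos.ne' Nat.card_pos.ne').2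
        (Subgroup.card_dvd_of_le hLH) p
    · have h1 : p ^ (Nat.card H).factorization p ∣ Nat.card ↥(pElementClosure p H) := by
        rw [← hcard]; exact Subgroup.card_dvd_of_le hTL
      exact (Nat.Prime.pow_dvd_iff_le_factorization hp.out Nat.card_pos.ne').1 h1
  obtain ⟨Q, hQ⟩ := exists_sylow_of_card (p := p) hTL (by rw [hfact]; exact hcard)
  have hsup := Cfsg.Agent.Lib.Components.IsolatedMin.pResidual_sup_sylow Q
  have := Cfsg.Agent.Lib.Transfer.Basic.pResidual_normal p ↥(pElementClosure p H)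
  have ha' : (⟨a, ha⟩ : ↥(pElementClosure p H)) ∈ (Q : Subgroup _) ⊔ pResidual p ↥(pElementClosure p H) := by
    rw [hsup]; trivial
  rw [sup_comm, ← SetLike.mem_coe, Subgroup.normal_mul] at ha'
  obtain ⟨r, hr, t, ht, hrt⟩ := Set.mem_mul.mp ha'
  have htT : (t : X) ∈ T := by
    rw [← hQ]; exact Subgroup.mem_map_of_mem _ ht
  refine ⟨(r : X), Subgroup.mem_map_of_mem _ hr, (t : X) * k, K.mul_mem (hTK htT) hkK, ?_⟩
  have : a = (r : X) * (t : X) := by
    have := congrArg Subtype.val hrt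
    simpa using this.symm
  rw [this, mul_assoc]

/-- For adjacent vertices of an amalgam as in the standing hypothesis, `G_λ = E · G_{λμ}`. -/
theorem factor_adj (h : IsSpeAmalgamPair p M₁ M₂) {l μ : CosetVertex M₁ M₂}
    (hadj : (cosetGraph M₁ M₂).Adj l μ) {g : X} (hg : g ∈ MulAction.stabilizer X l) :
    ∃ e ∈ (pResidual p ↥(pElementClosure p (MulAction.stabilizer X l))).map
        (pElementClosure p (MulAction.stabilizer X l)).subtype,
      ∃ k ∈ MulAction.stabilizer X μ, g = e * k := by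
  have hc := h.1
  have hf1 := hc.2.1
  have hf2 := hc.2.2.1
  have := finite_stab hc l
  have hfinI : Finite ↥(M₁ ⊓ M₂) :=
    Finite.of_injective (Subgroup.inclusion inf_le_left) (Subgroup.inclusion_injective _)
  obtain ⟨S₁⟩ : Nonempty (Sylow p ↥(M₁ ⊓ M₂)) := inferInstance
  obtain ⟨e1, e2⟩ := sylow_card_eq hc
  have hcT₁ : Nat.card ((S₁ : Subgroup _).map (M₁ ⊓ M₂).subtype) =
      p ^ (Nat.card ↥(M₁ ⊓ M₂)).factorization p := by
    rw [← S₁.card_eq_multiplicity]
    exact Nat.card_congr (Subgroup.equivMapOfInjective _ _ (M₁ ⊓ M₂).subtype_injective).toEquiv.symm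
  have hT₁le : (S₁ : Subgroup _).map (M₁ ⊓ M₂).subtype ≤ M₁ ⊓ M₂ := Subgroup.map_subtype_le _
  obtain ⟨hnorm1, hnorm2⟩ := h.2.1 S₁
  set T₁ := (S₁ : Subgroup _).map (M₁ ⊓ M₂).subtype with hT₁
  -- the normalizer transfer
  have hNconj : ∀ (x k : X) (M : Subgroup X), M ⊓ Subgroup.normalizer (T₁ : Set X) ≤ M₁ ⊓ M₂ →
      k ∈ M.map (MulAut.conj x).toMonoidHom →
      k ∈ Subgroup.normalizer ((T₁.map (MulAut.conj x).toMonoidHom : Subgroup X) : Set X) →
      k ∈ (M₁ ⊓ M₂).map (MulAut.conj x).toMonoidHom := by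
    intro x k M hM hk hkN
    obtain ⟨k', hk', rfl⟩ := hk
    refine Subgroup.mem_map_of_mem _ (hM ⟨hk', ?_⟩)
    show k' ∈ Subgroup.normalizer (T₁ : Set X)
    rw [Subgroup.mem_normalizer_iff] at hkN ⊢
    intro z
    have h3 := hkN ((MulAut.conj x).toMonoidHom z)
    have hmem : ∀ y : X, (MulAut.conj x).toMonoidHom y ∈ T₁.map (MulAut.conj x).toMonoidHom ↔ y ∈ T₁ :=
      fun y => Subgroup.mem_map_iff_mem (MulAut.conj x).injective
    rw [hmem] at h3
    rw [h3]
    have h4 : (MulAut.conj x).toMonoidHom k' * (MulAut.conj x).toMonoidHom z *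
        ((MulAut.conj x).toMonoidHom k')⁻¹ = (MulAut.conj x).toMonoidHom (k' * z * k'⁻¹) := by
      rw [map_mul, map_mul, map_inv]
    rw [h4, hmem]
  rw [adj_iff] at hadj
  rcases hadj with ⟨x, rfl, rfl⟩ | ⟨x, rfl, rfl⟩
  · refine factor (T := T₁.map (MulAut.conj x).toMonoidHom) ?_ ?_ ?_ ?_ hg
    · rw [stabilizer_inl]
      exact Subgroup.map_mono (hT₁le.trans inf_le_left)
    · rw [stabilizer_inr]
      exact Subgroup.map_mono (hT₁le.trans inf_le_right)
    · rw [card_map_conj, stabilizer_inl, card_map_conj, hcT₁, e1]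
    · intro k hk hkN
      rw [stabilizer_inl] at hk
      have h5 := hNconj x k M₁ hnorm2 hk hkN
      rw [stabilizer_inr]
      exact Subgroup.map_mono inf_le_right h5
  · refine factor (T := T₁.map (MulAut.conj x).toMonoidHom) ?_ ?_ ?_ ?_ hg
    · rw [stabilizer_inr]
      exact Subgroup.map_mono (hT₁le.trans inf_le_right)
    · rw [stabilizer_inl]
      exact Subgroup.map_mono (hT₁le.trans inf_le_left)
    · rw [card_map_conj, stabilizer_inr, card_map_conj, hcT₁, e2]
    · intro k hk hkN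
      rw [stabilizer_inr] at hk
      have h5 := hNconj x k M₂ (hnorm1 ▸ hnorm2) hk hkN
      rw [stabilizer_inl]
      exact Subgroup.map_mono inf_le_left h5

/-- Generation by `E`-conjugates. -/
theorem vIter_le_of_conj_E (h : IsSpeAmalgamPair p M₁ M₂) {l μ : CosetVertex M₁ M₂}
    (hadj : (cosetGraph M₁ M₂).Adj l μ) {n : ℕ} (hn : 1 ≤ n) {Y : Subgroup X}
    (hY : ∀ e ∈ (pResidual p ↥(pElementClosure p (MulAction.stabilizer X l))).map
        (pElementClosure p (MulAction.stabilizer X l)).subtype,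
        ∀ w ∈ vertexVIter p M₁ M₂ (n - 1) μ, e * w * e⁻¹ ∈ Y) :
    vertexVIter p M₁ M₂ n l ≤ Y := by
  refine vIter_le_of_conj h.1 hadj hn ?_
  intro g hg w hw
  obtain ⟨e, he, k, hk, rfl⟩ := factor_adj h hadj hg
  have h1 := conj_mem_vIter h.1 k hw
  rw [MulAction.mem_stabilizer_iff.mp hk] at h1
  have h2 := hY e he _ h1
  have e3 : e * k * w * (e * k)⁻¹ = e * (k * w * k⁻¹) * e⁻¹ := by group
  rw [e3]
  exact h2

/-- `Z_δ ≠ 1`. -/
theorem exists_ne_one_vertexZ (h : IsCharPAmalgamPair p M₁ M₂) (δ : CosetVertex M₁ M₂) :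
    ∃ z ∈ vertexZ p δ, z ≠ 1 := by
  have := finite_stab h δ
  have hdvd : p ∣ Nat.card (MulAction.stabilizer X δ) := by
    rcases vertex_cases δ with ⟨x, rfl⟩ | ⟨x, rfl⟩
    · rw [stabilizer_inl, card_map_conj]; exact h.2.2.2.1
    · rw [stabilizer_inr, card_map_conj]; exact h.2.2.2.2.1
  obtain ⟨S⟩ : Nonempty (Sylow p (MulAction.stabilizer X δ)) := inferInstance
  have hcS : p ∣ Nat.card S := by
    rw [S.card_eq_multiplicity]
    exact dvd_pow_self p (Nat.Prime.factorization_pos_of_dvd hp.out Nat.card_pos.ne' hdvd).ne'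
  have : Nontrivial S := by
    rw [← Finite.one_lt_card_iff_nontrivial]
    exact lt_of_lt_of_le hp.out.one_lt (Nat.le_of_dvd Nat.card_pos hcS)
  have hnt := IsPGroup.center_nontrivial S.2
  have hcZ : p ∣ Nat.card (Subgroup.center S) := by
    obtain ⟨k, hk⟩ := IsPGroup.iff_card.mp (S.2.to_subgroup (Subgroup.center S))
    rw [hk]
    refine dvd_pow_self p ?_
    rintro rfl
    have h2 : Nat.card (Subgroup.center S) = 1 := by simpa using hk
    exact absurd (Finite.one_lt_card (α := Subgroup.center S)) (by omega)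
  obtain ⟨z, hz⟩ := exists_prime_orderOf_dvd_card' p hcZ
  refine ⟨((z : S) : MulAction.stabilizer X δ), ?_, ?_⟩
  · refine mem_sylowCenterClosure_of S (Subgroup.mem_map_of_mem _ (z : S).2) ?_ ?_
    · rintro _ ⟨y, hy, rfl⟩
      have h1 := (Subgroup.mem_center_iff.mp z.2) ⟨y, hy⟩
      have h2 := congrArg (fun a : S => ((a : MulAction.stabilizer X δ) : X)) h1
      exact h2
    · have h3 : z ^ p = 1 := by
        have h30 := pow_orderOf_eq_one z
        rwa [hz] at h30
      have h4 := congrArg (fun a : Subgroup.center S => (((a : S) : MulAction.stabilizer X δ) : X)) h3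
      simpa using h4
  · intro h1
    have : z = 1 := by
      apply Subtype.ext
      apply Subtype.ext
      apply Subtype.ext
      exact h1
    rw [this, orderOf_one] at hz
    exact hp.out.one_lt.ne hz

/-- The contradiction: `V_λ^{(n)} = V_μ^{(n-1)}` is normal in `X` and lies in an edge stabilizer. -/
theorem false_of_eq (h : IsCharPAmalgamPair p M₁ M₂) {l μ : CosetVertex M₁ M₂}
    (hadj : (cosetGraph M₁ M₂).Adj l μ) {n m : ℕ}
    (heq : vertexVIter p M₁ M₂ n l = vertexVIter p M₁ M₂ m μ)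
    (hVQ : vertexVIter p M₁ M₂ n l ≤ vertexQ p l) : False := by
  set V := vertexVIter p M₁ M₂ n l with hV
  have hl : ∀ g ∈ MulAction.stabilizer X l, g ∈ Subgroup.normalizer (V : Set X) := by
    intro g hg
    refine mem_normalizer_of_forall_conj (fun x hx => ?_) (fun x hx => ?_)
    · have := conj_mem_vIter h g hx
      rwa [MulAction.mem_stabilizer_iff.mp hg] at this
    · have hg' := (MulAction.stabilizer X l).inv_mem hg
      have := conj_mem_vIter h g⁻¹ hx
      rw [MulAction.mem_stabilizer_iff.mp hg'] at this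
      simpa using this
  have hm : ∀ g ∈ MulAction.stabilizer X μ, g ∈ Subgroup.normalizer (V : Set X) := by
    intro g hg
    refine mem_normalizer_of_forall_conj (fun x hx => ?_) (fun x hx => ?_)
    · rw [heq] at hx ⊢
      have := conj_mem_vIter h g hx
      rwa [MulAction.mem_stabilizer_iff.mp hg] at this
    · rw [heq] at hx ⊢
      have hg' := (MulAction.stabilizer X μ).inv_mem hg
      have := conj_mem_vIter h g⁻¹ hx
      rw [MulAction.mem_stabilizer_iff.mp hg'] at this
      simpa using this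
  have hQμ : vertexQ p l ≤ MulAction.stabilizer X μ :=
    (vertexQ_le_neighbourKernel h l).trans (neighbourKernel_le_stabilizer hadj)
  have hQl : vertexQ p l ≤ MulAction.stabilizer X l := pCoreOf_le
  have hnormal_of : ∀ x : X, MulAction.stabilizer X l ⊔ MulAction.stabilizer X μ =
      (M₁ ⊔ M₂).map (MulAut.conj x).toMonoidHom → V ≤ (M₁ ⊓ M₂).map (MulAut.conj x).toMonoidHom →
      False := by
    intro x hj hle
    have htop : (M₁ ⊔ M₂).map (MulAut.conj x).toMonoidHom = ⊤ := by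
      rw [h.1.1]
      exact Subgroup.map_top_of_surjective _ (MulAut.conj x).surjective
    have hN : V.Normal := by
      rw [← Subgroup.normalizer_eq_top_iff]
      rw [eq_top_iff, ← htop, ← hj]
      exact sup_le hl hm
    have hle2 : V ≤ M₁ ⊓ M₂ := by
      intro v hv
      have h1 := hN.conj_mem v hv x
      obtain ⟨w, hw, e⟩ := hle h1
      have e' : x * w * x⁻¹ = x * v * x⁻¹ := e
      have : w = v := by simpa using e'
      rwa [← this]
    have hbot := h.1.2.2.2 V hle2 hN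
    obtain ⟨z, hz, hz1⟩ := exists_ne_one_vertexZ h l
    have hzV : z ∈ V := vertexZ_le_vIter (by rw [SimpleGraph.dist_self]; omega) hz
    rw [hbot] at hzV
    exact hz1 (Subgroup.mem_bot.mp hzV)
  have hadj' := hadj
  rw [adj_iff] at hadj'
  rcases hadj' with ⟨x, rfl, rfl⟩ | ⟨x, rfl, rfl⟩
  · refine hnormal_of x ?_ ?_
    · rw [stabilizer_inl, stabilizer_inr, Subgroup.map_sup]
    · rw [← edgeStabilizer_eq]
      exact le_inf (hVQ.trans hQl) (hVQ.trans hQμ)
  · refine hnormal_of x ?_ ?_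
    · rw [stabilizer_inl, stabilizer_inr, Subgroup.map_sup, sup_comm]
    · rw [← edgeStabilizer_eq]
      exact le_inf (hVQ.trans hQμ) (hVQ.trans hQl)

/-- Every vertex has a neighbour. -/
theorem exists_adj (l : CosetVertex M₁ M₂) : ∃ μ, (cosetGraph M₁ M₂).Adj l μ := by
  rcases vertex_cases l with ⟨x, rfl⟩ | ⟨x, rfl⟩
  · exact ⟨_, adj_inl_inr x⟩
  · exact ⟨_, (adj_inl_inr x).symm⟩

/-- Nilpotent argument: normal `W ≤ V` in a nilpotent group and `V ≤ W [V, Q]` force `V ≤ W`. -/
theorem le_of_le_sup_commutator {Q V W : Subgroup X} [Finite Q] (hQ : IsPGroup p Q)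
    (hVQ : V ≤ Q) (hWQ : W ≤ Q) (hWn : ∀ q ∈ Q, ∀ w ∈ W, q * w * q⁻¹ ∈ W)
    (hV : V ≤ W ⊔ ⁅V, Q⁆) : V ≤ W := by
  have hnil : Group.IsNilpotent ↥Q := hQ.isNilpotent
  set W' := W.subgroupOf Q with hW'
  set V' := V.subgroupOf Q with hV'
  have hWnorm : W'.Normal := by
    constructor
    intro n hn c
    rw [hW', Subgroup.mem_subgroupOf] at hn ⊢
    exact hWn c c.2 n hn
  have hmapV : V'.map Q.subtype = V := by
    rw [hV', Subgroup.map_subgroupOf_eq_of_le hVQ]
  have hmapW : W'.map Q.subtype = W := by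
    rw [hW', Subgroup.map_subgroupOf_eq_of_le hWQ]
  have hmapT : (⊤ : Subgroup ↥Q).map Q.subtype = Q := by
    rw [← MonoidHom.range_eq_map, Subgroup.range_subtype]
  have h1 : V' ≤ W' ⊔ ⁅V', ⊤⁆ := by
    rw [← Subgroup.map_le_map_iff_of_injective Q.subtype_injective, Subgroup.map_sup,
      Subgroup.map_commutator, hmapV, hmapW, hmapT]
    exact hV
  set f := QuotientGroup.mk' W' with hf
  have hfsurj : Function.Surjective f := QuotientGroup.mk'_surjective W'
  have h2 : V'.map f ≤ ⁅V'.map f, ⊤⁆ := by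
    have h3 := Subgroup.map_mono (f := f) h1
    rw [Subgroup.map_sup, Subgroup.map_commutator, Subgroup.map_top_of_surjective f hfsurj] at h3
    have h4 : W'.map f = ⊥ := by
      rw [Subgroup.map_eq_bot_iff, hf, QuotientGroup.ker_mk']
    rwa [h4, bot_sup_eq] at h3
  have h5 : ∀ i, V'.map f ≤ (⊤ : Subgroup (↥Q ⧸ W')).lowerCentralSeries i := by
    intro i
    induction i with
    | zero => exact le_top
    | succ i ih => exact h2.trans (Subgroup.commutator_mono ih le_rfl)
  obtain ⟨n, hn⟩ := Subgroup.nilpotent_iff_lowerCentralSeries.mp (inferInstance : Group.IsNilpotent (↥Q ⧸ W'))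
  have h6 := h5 n
  rw [hn, le_bot_iff, Subgroup.map_eq_bot_iff, hf, QuotientGroup.ker_mk'] at h6
  rw [← hmapV, ← hmapW]
  exact Subgroup.map_mono h6

end Cfsg.Agent.Lib.VIter
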